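import Mathlib
import Cfsg.Prelude.Def_CaseTheorems
import Cfsg.Agent.Lib.Techniques.SylowIn

/-!
# Elementary facts on `PRankLE`
-/

set_option linter.unusedSectionVars false

namespace Cfsg.Agent.Lib.Invol

open Cfsg Cfsg.Agent.Lib.Techniques

variable {G : Type*} [Group G] {p k : ℕ}

lemma prank_of_injective {A B : Type*} [Group A] [Group B] {f : A →* B}
    (hf : Function.Injective f) (h : PRankLE p k B) : PRankLE p k A := by
  intro C hC hexp
  have h1 := h (C.map f) ?_ ?_
  · rwa [Nat.card_congr (C.equivMapOfInjective f hf).toEquiv]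
  · refine ⟨⟨?_⟩⟩
    rintro ⟨_, a, ha, rfl⟩ ⟨_, b, hb, rfl⟩
    apply Subtype.ext
    have : (⟨a, ha⟩ : C) * ⟨b, hb⟩ = ⟨b, hb⟩ * ⟨a, ha⟩ := hC.1.1 _ _
    have h2 := congrArg Subtype.val this
    change a * b = b * a at h2
    change f a * f b = f b * f a
    rw [← map_mul, ← map_mul, h2]
  · rintro _ ⟨a, ha, rfl⟩
    rw [← map_pow, hexp a ha, map_one]

lemma prank_mono {A B : Subgroup G} (hAB : A ≤ B) (h : PRankLE p k B) : PRankLE p k A :=
  prank_of_injective (f := Subgroup.inclusion hAB) (Subgroup.inclusion_injective hAB) h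

lemma prank_iff_of_mulEquiv {A B : Type*} [Group A] [Group B] (e : A ≃* B) : PRankLE p k A ↔ PRankLE p k B :=
  ⟨fun h => prank_of_injective (f := e.symm.toMonoidHom) e.symm.injective h,
    fun h => prank_of_injective (f := e.toMonoidHom) e.injective h⟩

lemma prank_conjS (g : G) {T : Subgroup G} : PRankLE p k (conjS g T) ↔ PRankLE p k T :=
  (prank_iff_of_mulEquiv (T.equivMapOfInjective _ (MulAut.conj g).injective)).symm

/-- An elementary abelian subgroup of a subgroup of `p`-rank at most `k` has order at most `p ^ k`. -/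
lemma card_le_of_prank {T E : Subgroup G} (hET : E ≤ T) (hc : IsMulCommutative E) (he : ∀ a ∈ E, a ^ p = 1)
    (h : PRankLE p k T) : Nat.card E ≤ p ^ k := by
  have h1 := h (E.subgroupOf T) ?_ ?_
  · rwa [Nat.card_congr (Subgroup.subgroupOfEquivOfLe hET).toEquiv] at h1
  · refine ⟨⟨fun a b => ?_⟩⟩
    apply Subtype.ext
    apply Subtype.ext
    have := hc.1.1 ⟨a.1.1, a.2⟩ ⟨b.1.1, b.2⟩
    have h2 := congrArg Subtype.val this
    exact h2
  · intro a ha
    apply Subtype.ext
    exact he _ ha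

/-- Witness for failure of a rank bound. -/
lemma exists_of_not_prank {T : Subgroup G} (h : ¬ PRankLE p k T) :
    ∃ E : Subgroup G, E ≤ T ∧ IsMulCommutative E ∧ (∀ a ∈ E, a ^ p = 1) ∧ p ^ k < Nat.card E := by
  unfold PRankLE at h
  push Not at h
  obtain ⟨A, hc, he, hlt⟩ := h
  refine ⟨A.map T.subtype, Subgroup.map_subtype_le A, ?_, ?_, ?_⟩
  · refine ⟨⟨?_⟩⟩
    rintro ⟨_, a, ha, rfl⟩ ⟨_, b, hb, rfl⟩
    apply Subtype.ext
    have : (⟨a, ha⟩ : A) * ⟨b, hb⟩ = ⟨b, hb⟩ * ⟨a, ha⟩ := hc.1.1 _ _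
    have h2 := congrArg Subtype.val this
    change a * b = b * a at h2
    change (a : G) * b = b * a
    rw [← Subgroup.coe_mul, ← Subgroup.coe_mul, h2]
  · rintro _ ⟨a, ha, rfl⟩
    have := congrArg Subtype.val (he a ha)
    simpa using this
  · rwa [Nat.card_congr (A.equivMapOfInjective T.subtype T.subtype_injective).symm.toEquiv]

/-- Subgroup witness implies failure of a rank bound. -/
lemma not_prank_of_witness {T E : Subgroup G} (hET : E ≤ T) (hc : IsMulCommutative E) (he : ∀ a ∈ E, a ^ p = 1)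
    (hlt : p ^ k < Nat.card E) : ¬ PRankLE p k T := fun h =>
  absurd (card_le_of_prank hET hc he h) (not_le.2 hlt)

end Cfsg.Agent.Lib.Invol
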