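import Mathlib
import Cfsg.Agent.Lib.Invol.Zassenhaus

/-!
# Groups with elementary abelian involution centralizers, part 2: the action on cosets of `N_G(T)`
-/

set_option linter.unusedSectionVars false

namespace Cfsg.Agent.Lib.Invol

open Cfsg Cfsg.Agent.Lib.Techniques

variable {G : Type*} [Group G] [Finite G]

section

variable {T : Sylow 2 G} (Z : ZH T) (hnc : ¬ IsCyclic (T : Subgroup G))
include Z hnc

/-- `D` is nontrivial. -/
lemma DD_ne_bot {u : G} (hu : orderOf u = 2) (huH : u ∉ NT T) : DD T u ≠ ⊥ := by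
  intro h
  have h1 := card_DD Z hu huH
  rw [h, Subgroup.card_bot] at h1
  apply hnc
  haveI : Fact (Nat.Prime (Nat.card (T : Subgroup G))) := ⟨by rw [← h1]; norm_num⟩
  exact isCyclic_of_prime_card rfl

/-- `N_H(D) = D`. -/
lemma NH_D {u : G} (hu : orderOf u = 2) (huH : u ∉ NT T) {h : G} (hh : h ∈ NT T)
    (hn : h ∈ Subgroup.normalizer ((DD T u : Subgroup G) : Set G)) : h ∈ DD T u := by
  obtain ⟨d, hd, t, ht, rfl⟩ := H_eq Z hu huH hh
  have hdN : d ∈ Subgroup.normalizer ((DD T u : Subgroup G) : Set G) := Subgroup.le_normalizer hd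
  have htN : t ∈ Subgroup.normalizer ((DD T u : Subgroup G) : Set G) := by
    have e : t = d⁻¹ * (d * t) := by group
    rw [e]
    exact Subgroup.mul_mem _ (Subgroup.inv_mem _ hdN) hn
  by_cases ht1 : t = 1
  · rw [ht1, mul_one]; exact hd
  · exfalso
    apply DD_ne_bot Z hnc hu huH
    rw [eq_bot_iff]
    intro d₁ hd₁
    rw [Subgroup.mem_bot]
    have h1 : t * d₁ * t⁻¹ ∈ DD T u := (Subgroup.mem_normalizer_iff.1 htN d₁).1 hd₁
    have hd₁H : d₁ ∈ NT T := DD_le Z hu huH hd₁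
    have h2 : t * d₁ * t⁻¹ * d₁⁻¹ = 1 := by
      apply DD_inf_T Z hu huH ((DD T u).mul_mem h1 ((DD T u).inv_mem hd₁))
      have e : t * d₁ * t⁻¹ * d₁⁻¹ = t * (d₁ * t⁻¹ * d₁⁻¹) := by group
      rw [e]
      exact (T : Subgroup G).mul_mem ht
        ((Subgroup.mem_normalizer_iff.1 hd₁H t⁻¹).1 ((T : Subgroup G).inv_mem ht))
    have h3 : d₁ * t = t * d₁ := by
      have h4 := mul_eq_one_iff_eq_inv.1 h2
      rw [inv_inv] at h4
      calc d₁ * t = (t * d₁ * t⁻¹) * t := by rw [h4]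
        _ = t * d₁ := by group
    exact DD_inf_T Z hu huH hd₁ (Z.mem_T_of_comm ht ht1 h3)

lemma exists_invol_smul {x w : G ⧸ NT T} (hxw : x ≠ w) : ∃ v : G, orderOf v = 2 ∧ v • x = w := by
  obtain ⟨s₀, hs₀, hs₀w⟩ := se_exists_invol_fix Z.se w
  obtain ⟨t₀, ht₀, ht₀x⟩ := se_exists_invol_fix Z.se x
  obtain ⟨⟨v, hv, hvx⟩, -⟩ := (se_interchange_bij Z.se hxw hs₀ hs₀w).2 ⟨t₀, ht₀, ht₀x⟩
  exact ⟨v, hv, hvx⟩

/-- `C_G(D) = D`. -/
lemma CD_eq {u : G} (hu : orderOf u = 2) (huH : u ∉ NT T) {c : G}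
    (hc : ∀ d ∈ DD T u, c * d = d * c) : c ∈ DD T u := by
  have hcN : c ∈ Subgroup.normalizer ((DD T u : Subgroup G) : Set G) := by
    apply mem_normalizer_of_conjS_le
    rintro _ ⟨d, hd, rfl⟩
    have : c * d * c⁻¹ = d := by rw [hc d hd]; group
    show c * d * c⁻¹ ∈ DD T u
    rw [this]; exact hd
  by_cases hcH : c ∈ NT T
  · exact NH_D Z hnc hu huH hcH hcN
  · exfalso
    have hxw : ((1 : G) : G ⧸ NT T) ≠ ((c : G) : G ⧸ NT T) := by
      intro h
      apply hcH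
      rw [mem_iff_fix, ← mk_eq_smul_one]
      exact h.symm
    obtain ⟨v, hv, hvx⟩ := exists_invol_smul Z hnc hxw
    have hvH : v ∉ NT T := by
      intro h
      rw [mem_iff_fix] at h
      exact hxw (h.symm.trans hvx)
    have hvm : ((v : G) : G ⧸ NT T) = ((c : G) : G ⧸ NT T) := by
      rw [mk_eq_smul_one, hvx]
    have hle : DD T u ≤ DD T v := by
      intro d hd
      rw [mem_DD_iff Z] at hd ⊢
      refine ⟨hd.1, ?_⟩
      rw [hvm, mk_eq_smul_one, ← mul_smul, ← hc d ((mem_DD_iff Z d).2 hd), mul_smul, hd.1]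
    have heq : DD T u = DD T v := Subgroup.eq_of_le_of_card_ge hle (by
      have h1 := card_DD Z hu huH
      have h2 := card_DD Z hv hvH
      omega)
    have hcv : c⁻¹ * v ∈ NT T := by
      rw [mem_iff_fix, mul_smul, hvx, mk_eq_smul_one, ← mul_smul]
      simp
    have hvN : v ∈ Subgroup.normalizer ((DD T u : Subgroup G) : Set G) := by
      apply mem_normalizer_of_conjS_le
      rintro _ ⟨d, hd, rfl⟩
      have hd' : d ∈ DD T v := hle hd
      show v * d * v⁻¹ ∈ DD T u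
      rw [heq]
      exact DD_conj_u Z hv hvH hd'
    have hd0 : c⁻¹ * v ∈ DD T u := NH_D Z hnc hu huH hcv
      (Subgroup.mul_mem _ (Subgroup.inv_mem _ hcN) hvN)
    apply DD_ne_bot Z hnc hu huH
    rw [eq_bot_iff]
    intro d hd
    rw [Subgroup.mem_bot]
    have h1 : v * d * v⁻¹ = d⁻¹ := DD_inverts Z hv hvH (hle hd)
    have h2 : v * d * v⁻¹ = d := by
      have e : v = c * (c⁻¹ * v) := by group
      have h3 : (c⁻¹ * v) * d = d * (c⁻¹ * v) := DD_comm Z hu huH hd0 hd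
      calc v * d * v⁻¹ = c * ((c⁻¹ * v) * d) * v⁻¹ := by group
        _ = c * (d * (c⁻¹ * v)) * v⁻¹ := by rw [h3]
        _ = (c * d) * c⁻¹ := by group
        _ = d := by rw [hc d hd]; group
    rw [h2] at h1
    have h3 : d * d = 1 := by
      calc d * d = d⁻¹ * d := by rw [← h1]
        _ = 1 := by group
    have h4 := DD_odd Z hu huH hd
    have h5 : orderOf d ∣ 2 := orderOf_dvd_of_pow_eq_one (by rw [pow_two]; exact h3)
    rcases (Nat.dvd_prime Nat.prime_two).1 h5 with h6 | h6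
    · exact orderOf_eq_one_iff.1 h6
    · rw [h6] at h4
      exact absurd h4 (by decide)

/-- Involutions outside `H` with the same `D` move the base point to the same point. -/
lemma v_fix {u v : G} (hu : orderOf u = 2) (huH : u ∉ NT T) (hv : orderOf v = 2) (hvH : v ∉ NT T)
    (h : DD T v = DD T u) : v • ((1 : G) : G ⧸ NT T) = u • ((1 : G) : G ⧸ NT T) := by
  have huu := mul_self_of_order_two hu
  have hc : u * v ∈ DD T u := by
    apply CD_eq Z hnc hu huH
    intro d hd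
    have h1 : v * d * v⁻¹ = d⁻¹ := DD_inverts Z hv hvH (h ▸ hd)
    have h2 : u * d⁻¹ * u⁻¹ = (d⁻¹)⁻¹ := DD_inverts Z hu huH ((DD T u).inv_mem hd)
    rw [inv_inv] at h2
    calc u * v * d = u * (v * d * v⁻¹) * v := by group
      _ = u * d⁻¹ * v := by rw [h1]
      _ = (u * d⁻¹ * u⁻¹) * (u * v) := by group
      _ = d * (u * v) := by rw [h2]
  have h1 : (u * v) • ((1 : G) : G ⧸ NT T) = ((1 : G) : G ⧸ NT T) :=
    (mem_iff_fix _ _).1 (DD_le Z hu huH hc)
  have e : v = u * (u * v) := by rw [← mul_assoc, huu, one_mul]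
  calc v • ((1 : G) : G ⧸ NT T) = (u * (u * v)) • ((1 : G) : G ⧸ NT T) := by rw [← e]
    _ = u • ((u * v) • ((1 : G) : G ⧸ NT T)) := mul_smul _ _ _
    _ = _ := by rw [h1]

lemma DD_conj {v a : G} (ha : a ∈ NT T) : DD T (a * v * a⁻¹) = conjS a (DD T v) := by
  have e1 : conjS (a * v * a⁻¹) (NT T) = conjS a (conjS v (NT T)) := by
    rw [conjS_mul, conjS_mul, conjS_eq_of_mem ((NT T).inv_mem ha)]
  show NT T ⊓ conjS (a * v * a⁻¹) (NT T) = conjS a (NT T ⊓ conjS v (NT T))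
  rw [e1, conjS_inf, conjS_eq_of_mem ha]

/-- `T` is transitive on the points other than the base point. -/
lemma T_trans {u : G} (hu : orderOf u = 2) (huH : u ∉ NT T) {z : G ⧸ NT T}
    (hz : z ≠ ((1 : G) : G ⧸ NT T)) :
    ∃ t ∈ (T : Subgroup G), t • (u • ((1 : G) : G ⧸ NT T)) = z := by
  obtain ⟨v, hv, hvx⟩ := exists_invol_smul Z hnc (Ne.symm hz)
  have hvH : v ∉ NT T := by
    intro h
    rw [mem_iff_fix] at h
    exact hz (hvx.symm.trans h)
  have hTN := Z.T_le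
  have hab : IsMulCommutative (T : Subgroup G) := ⟨⟨fun a b => Subtype.ext (Z.comm a.2 b.2)⟩⟩
  have hcop : (Nat.card (T : Subgroup G)).Coprime ((T : Subgroup G).relIndex (NT T)) := by
    obtain ⟨k, hk⟩ := IsPGroup.iff_card.1 T.isPGroup'
    rw [hk]
    apply Nat.Coprime.pow_left
    rw [Nat.Prime.coprime_iff_not_dvd Nat.prime_two]
    exact ((sylowIn_top_of_sylow T).of_le hTN le_top).2.2
  have hinf : ∀ w, orderOf w = 2 → w ∉ NT T → (T : Subgroup G) ⊓ DD T w = ⊥ := by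
    intro w hw hwH
    rw [eq_bot_iff]
    rintro d ⟨hd1, hd2⟩
    rw [Subgroup.mem_bot]
    exact DD_inf_T Z hw hwH hd2 hd1
  have hsup : ∀ w, orderOf w = 2 → w ∉ NT T → (T : Subgroup G) ⊔ DD T w = NT T := by
    intro w hw hwH
    apply le_antisymm (sup_le hTN (DD_le Z hw hwH))
    intro h hh
    obtain ⟨d, hd, t, ht, rfl⟩ := H_eq Z hw hwH hh
    rw [sup_comm]
    exact Subgroup.mul_mem_sup hd ht
  obtain ⟨a, haT, hae⟩ := Cfsg.Agent.Lib.Hall.exists_conj_of_abelian_rel (T : Subgroup G) (NT T) (DD T v) (DD T u)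
    hTN le_rfl hab hcop (hinf v hv hvH) (hsup v hv hvH) (hinf u hu huH) (hsup u hu huH)
  have hae' : conjS a (DD T v) = DD T u := hae
  have haH : a ∈ NT T := hTN haT
  have hv' : orderOf (a * v * a⁻¹) = 2 := by rw [orderOf_conj']; exact hv
  have hvH' : a * v * a⁻¹ ∉ NT T := by
    intro h
    apply hvH
    have e : v = a⁻¹ * (a * v * a⁻¹) * a := by group
    rw [e]
    exact (NT T).mul_mem ((NT T).mul_mem ((NT T).inv_mem haH) h) haH
  have h1 := v_fix Z hnc hu huH hv' hvH' (by rw [DD_conj Z hnc haH, hae'])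
  have hax : a⁻¹ • ((1 : G) : G ⧸ NT T) = ((1 : G) : G ⧸ NT T) :=
    (mem_iff_fix _ _).1 ((NT T).inv_mem haH)
  rw [mul_smul, mul_smul, hax, hvx] at h1
  refine ⟨a⁻¹, (T : Subgroup G).inv_mem haT, ?_⟩
  rw [← h1, ← mul_smul]
  simp

/-- `T` acts freely on the points other than the base point. -/
lemma T_free {t : G} (ht : t ∈ (T : Subgroup G)) {w : G ⧸ NT T} (hw : w ≠ ((1 : G) : G ⧸ NT T))
    (h : t • w = w) : t = 1 := by
  by_contra ht1
  have hx : t • ((1 : G) : G ⧸ NT T) = ((1 : G) : G ⧸ NT T) := (mem_iff_fix _ _).1 (Z.T_le ht)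
  exact hw (se_fix_unique Z.se (Z.order_two ht ht1) h hx)

lemma u_ne {u : G} (huH : u ∉ NT T) : u • ((1 : G) : G ⧸ NT T) ≠ ((1 : G) : G ⧸ NT T) :=
  fun h => huH ((mem_iff_fix _ _).2 h)

/-- The fixed points of `D`. -/
lemma fix_DD {u : G} (hu : orderOf u = 2) (huH : u ∉ NT T) {z : G ⧸ NT T}
    (hz : ∀ d ∈ DD T u, d • z = z) :
    z = ((1 : G) : G ⧸ NT T) ∨ z = u • ((1 : G) : G ⧸ NT T) := by
  by_cases hz1 : z = ((1 : G) : G ⧸ NT T)
  · exact Or.inl hz1
  right
  obtain ⟨t, ht, rfl⟩ := T_trans Z hnc hu huH hz1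
  have hN : t⁻¹ ∈ Subgroup.normalizer ((DD T u : Subgroup G) : Set G) := by
    apply mem_normalizer_of_conjS_le
    rintro _ ⟨d, hd, rfl⟩
    show t⁻¹ * d * t⁻¹⁻¹ ∈ DD T u
    rw [mem_DD_iff Z]
    have htH := Z.T_le ht
    constructor
    · exact (mem_iff_fix _ _).1
        ((NT T).mul_mem ((NT T).mul_mem ((NT T).inv_mem htH) (DD_le Z hu huH hd)) (by simpa using htH))
    · rw [mk_eq_smul_one]
      have h1 := hz d hd
      simp only [inv_inv, mul_smul]
      rw [h1]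
      simp
  have h1 := NH_D Z hnc hu huH ((NT T).inv_mem (Z.T_le ht)) hN
  have h2 : t⁻¹ = 1 := DD_inf_T Z hu huH h1 ((T : Subgroup G).inv_mem ht)
  have h3 : t = 1 := by simpa using h2
  rw [h3, one_smul]

/-- The normalizer of `D`. -/
lemma normalizer_DD {u : G} (hu : orderOf u = 2) (huH : u ∉ NT T) :
    Subgroup.normalizer ((DD T u : Subgroup G) : Set G) = DD T u ⊔ Subgroup.zpowers u := by
  have huN : u ∈ Subgroup.normalizer ((DD T u : Subgroup G) : Set G) := by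
    apply mem_normalizer_of_conjS_le
    rintro _ ⟨d, hd, rfl⟩
    exact DD_conj_u Z hu huH hd
  apply le_antisymm
  · intro g hg
    have hfix : ∀ d ∈ DD T u, d • (g • ((1 : G) : G ⧸ NT T)) = g • ((1 : G) : G ⧸ NT T) := by
      intro d hd
      have h1 : g⁻¹ * d * g ∈ DD T u := by
        have := (Subgroup.mem_normalizer_iff.1 ((Subgroup.normalizer _).inv_mem hg) d).1 hd
        simpa using this
      have h2 : (g⁻¹ * d * g) • ((1 : G) : G ⧸ NT T) = ((1 : G) : G ⧸ NT T) :=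
        (mem_iff_fix _ _).1 (DD_le Z hu huH h1)
      calc d • (g • ((1 : G) : G ⧸ NT T)) = g • ((g⁻¹ * d * g) • ((1 : G) : G ⧸ NT T)) := by
            simp only [← mul_smul]
            congr 1
            group
        _ = _ := by rw [h2]
    rcases fix_DD Z hnc hu huH hfix with h | h
    · have hgH : g ∈ NT T := (mem_iff_fix _ _).2 h
      exact Subgroup.mem_sup_left (NH_D Z hnc hu huH hgH hg)
    · have hgH : u⁻¹ * g ∈ NT T := by
        rw [mem_iff_fix, mul_smul, h, ← mul_smul]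
        simp
      have h1 : u⁻¹ * g ∈ DD T u := NH_D Z hnc hu huH hgH
        (Subgroup.mul_mem _ (Subgroup.inv_mem _ huN) hg)
      have e : g = u * (u⁻¹ * g) := by group
      rw [e, sup_comm]
      exact Subgroup.mul_mem_sup (Subgroup.mem_zpowers u) h1
  · exact sup_le Subgroup.le_normalizer ((Subgroup.zpowers_le).2 huN)

end

end Cfsg.Agent.Lib.Invol
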